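import Cfsg.Agent.H3.Geometry
import Cfsg.Agent.H3.Count
import Cfsg.Agent.H66.Unitary
import Cfsg.Agent.H66.SemisimpleUnitary
import Cfsg.Agent.H97.HermBasic

set_option autoImplicit false

/-!
# Nondegenerate subspaces invariant under a unitary element

Such a subspace is the same as a block decomposition of the element up to conjugation in the unitary group.
-/

namespace Cfsg.Agent.H98.UND

open Module Polynomial
open scoped Matrix

variable {F : Type*} [Field F] {q a b : ℕ}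

/-- The first coordinate block. -/
def inlL (F : Type*) [Field F] (a b : ℕ) : (Fin a → F) →ₗ[F] (Fin (a + b) → F) where
  toFun u := Fin.append u 0
  map_add' u v := funext (Fin.addCases (fun i => by simp) (fun i => by simp))
  map_smul' c u := funext (Fin.addCases (fun i => by simp) (fun i => by simp))

/-- The second coordinate block. -/
def inrL (F : Type*) [Field F] (a b : ℕ) : (Fin b → F) →ₗ[F] (Fin (a + b) → F) where
  toFun v := Fin.append 0 v
  map_add' u v := funext (Fin.addCases (fun i => by simp) (fun i => by simp))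
  map_smul' c u := funext (Fin.addCases (fun i => by simp) (fun i => by simp))

theorem inlL_apply (u : Fin a → F) : inlL F a b u = Fin.append u 0 := rfl

theorem inrL_apply (v : Fin b → F) : inrL F a b v = Fin.append 0 v := rfl

theorem inlL_injective : Function.Injective (inlL F a b) := fun u v h =>
  funext fun i => by simpa [inlL_apply] using congrFun h (Fin.castAdd b i)

theorem inrL_injective : Function.Injective (inrL F a b) := fun u v h =>
  funext fun i => by simpa [inrL_apply] using congrFun h (Fin.natAdd a i)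

variable [Fintype F]

/-- A frame for a nondegenerate subspace. -/
theorem exists_frame (hF : Fintype.card F = q ^ 2) (W : Submodule F (Fin (a + b) → F))
    (hWd : finrank F W = a) (hW : ∀ u ∈ W, u ≠ 0 → ∃ v ∈ W, Cfsg.hermForm (a + b) F q u v ≠ 0) :
    ∃ g : Cfsg.GU (a + b) F q,
      LinearMap.range ((Matrix.toLin' ((g : GL (Fin (a + b)) F) : Matrix (Fin (a + b)) (Fin (a + b)) F)).comp
        (inlL F a b)) = W := by
  classical
  set B := H3.hermB hF (a + b) with hB
  have hBW : H3.IsHerm ((B.comp W.subtype).compl₂ W.subtype) q := by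
    refine ⟨hF, fun x => rfl, fun x y => (H3.isHerm_hermB hF (a + b)).symm _ _,
      fun x hx => Subtype.ext ?_⟩
    by_contra hne
    obtain ⟨v, hv, hxv⟩ := hW x.1 x.2 hne
    exact hxv ((H3.hermForm_eq_zero_comm hF).2 (hx ⟨v, hv⟩))
  obtain ⟨e, he⟩ := hBW.exists_orth_basis hWd
  have ho : H3.Orth B (fun i => (e i : Fin (a + b) → F)) := fun i j => he i j
  obtain ⟨c, hc, hce⟩ := (H3.isHerm_hermB hF (a + b)).exists_orth_extend (n := a + b) (by simp)
    (Nat.le_add_right a b) ho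
  obtain ⟨g, hg⟩ := H3.exists_GU_of_orth hF c hc
  refine ⟨g, ?_⟩
  have hLe : (Matrix.toLin' ((g : GL (Fin (a + b)) F) : Matrix (Fin (a + b)) (Fin (a + b)) F)).comp (inlL F a b) =
      W.subtype.comp (e.equivFun.symm : (Fin a → F) →ₗ[F] W) := by
    refine (Pi.basisFun F (Fin a)).ext fun i => ?_
    have hi := (hg (Fin.castAdd b i)).trans (hce i)
    rw [Pi.basisFun_apply, LinearMap.comp_apply, LinearMap.comp_apply, LinearEquiv.coe_coe,
      Module.Basis.equivFun_symm_apply, Matrix.toLin'_apply, inlL_apply]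
    rw [show Fin.append (Pi.single i (1 : F)) (0 : Fin b → F) = Pi.single (Fin.castAdd b i) 1 from
      funext (Fin.addCases (fun j => by simp [Pi.single_apply]) (fun j => by
        simp [Pi.single_apply, Fin.ext_iff]; intro h; exfalso; omega)), hi]
    simp [Pi.single_apply]
  rw [hLe, LinearMap.range_comp, LinearEquiv.range, Submodule.map_top, Submodule.range_subtype]

/-- An element preserving a nondegenerate subspace is conjugate to a block diagonal one. -/
theorem exists_block_of_nondeg (hF : Fintype.card F = q ^ 2) (x : Cfsg.GU (a + b) F q)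
    (W : Submodule F (Fin (a + b) → F)) (hWd : finrank F W = a)
    (hW : ∀ u ∈ W, u ≠ 0 → ∃ v ∈ W, Cfsg.hermForm (a + b) F q u v ≠ 0)
    (hWx : W.map (Matrix.toLin' ((x : GL (Fin (a + b)) F) : Matrix (Fin (a + b)) (Fin (a + b)) F)) ≤ W) :
    ∃ (g : Cfsg.GU (a + b) F q) (y₁ : Cfsg.GU a F q) (y₂ : Cfsg.GU b F q),
      x = g * H3.guBlock a b (y₁, y₂) * g⁻¹ := by
  obtain ⟨g, hg⟩ := exists_frame hF W hWd hW
  obtain ⟨p, hp⟩ := H3.exists_guBlock_eq hF (g⁻¹ * x * g) fun u => by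
    have hu : (g.1 : Matrix (Fin (a + b)) (Fin (a + b)) F) *ᵥ Fin.append u 0 ∈ W :=
      hg ▸ ⟨u, by simp [inlL_apply]⟩
    obtain ⟨u', hu'⟩ := hg.symm.le (hWx ⟨_, hu, rfl⟩)
    refine ⟨u', ?_⟩
    rw [H3.mul_mulVec_GU, H3.mul_mulVec_GU]
    rw [Matrix.toLin'_apply] at hu'
    rw [← hu']
    simp only [LinearMap.comp_apply, Matrix.toLin'_apply, inlL_apply]
    exact H3.inv_mulVec_GU g _
  exact ⟨g, p.1, p.2, by rw [hp]; group⟩

/-- Block diagonal elements preserve nondegenerate subspaces. -/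
theorem exists_nondeg_of_isConj (hF : Fintype.card F = q ^ 2) (x : Cfsg.GU (a + b) F q) (y₁ : Cfsg.GU a F q)
    (y₂ : Cfsg.GU b F q) (h : IsConj x (H3.guBlock a b (y₁, y₂))) :
    ∃ W : Submodule F (Fin (a + b) → F), finrank F W = a ∧
      (∀ u ∈ W, u ≠ 0 → ∃ v ∈ W, Cfsg.hermForm (a + b) F q u v ≠ 0) ∧
      W.map (Matrix.toLin' ((x : GL (Fin (a + b)) F) : Matrix (Fin (a + b)) (Fin (a + b)) F)) ≤ W := by
  obtain ⟨g, hg⟩ := isConj_iff.1 h.symm
  subst hg
  have hL : ∀ u, ((Matrix.toLin' ((g : GL (Fin (a + b)) F) : Matrix (Fin (a + b)) (Fin (a + b)) F)).comp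
      (inlL F a b)) u = (g.1 : Matrix (Fin (a + b)) (Fin (a + b)) F) *ᵥ Fin.append u 0 := fun u => by
    simp [inlL_apply]
  refine ⟨LinearMap.range ((Matrix.toLin' ((g : GL (Fin (a + b)) F) : Matrix (Fin (a + b)) (Fin (a + b)) F)).comp
    (inlL F a b)), ?_, ?_, ?_⟩
  · rw [LinearMap.finrank_range_of_inj, finrank_fin_fun]
    intro u v huv
    rw [hL, hL] at huv
    exact inlL_injective (Function.LeftInverse.injective (H3.inv_mulVec_GU g) huv)
  · rintro _ ⟨u, rfl⟩ hne
    obtain ⟨i, hi⟩ : ∃ i, u i ≠ 0 := Function.ne_iff.1 fun h0 => hne ((congrArg _ h0).trans (map_zero _))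
    refine ⟨_, ⟨Pi.single i 1, rfl⟩, ?_⟩
    rw [hL, hL, H3.GU_preserves, H3.hermForm_append, H3.hermForm_zero_left hF, add_zero, Cfsg.hermForm,
      Finset.sum_eq_single i (fun j _ hj => by
        simp [Pi.single_eq_of_ne hj, zero_pow (show q ≠ 0 by have := H3.two_le_q hF; omega)]) (by simp)]
    simpa using hi
  · rintro _ ⟨_, ⟨u, rfl⟩, rfl⟩
    refine ⟨(y₁.1 : Matrix (Fin a) (Fin a) F) *ᵥ u, ?_⟩
    rw [hL, hL, Matrix.toLin'_apply, H3.mul_mulVec_GU, H3.mul_mulVec_GU, H3.inv_mulVec_GU,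
      H3.guBlock_mulVec, Matrix.mulVec_zero]

omit [Fintype F] in
/-- The characteristic polynomial of a block diagonal element. -/
theorem charpoly_guBlock (y₁ : Cfsg.GU a F q) (y₂ : Cfsg.GU b F q) :
    ((H3.guBlock a b (y₁, y₂) : GL (Fin (a + b)) F) : Matrix (Fin (a + b)) (Fin (a + b)) F).charpoly =
      ((y₁ : GL (Fin a) F) : Matrix (Fin a) (Fin a) F).charpoly *
        ((y₂ : GL (Fin b) F) : Matrix (Fin b) (Fin b) F).charpoly := by
  show ((Matrix.fromBlocks ((y₁ : GL (Fin a) F) : Matrix (Fin a) (Fin a) F) 0 0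
    ((y₂ : GL (Fin b) F) : Matrix (Fin b) (Fin b) F)).reindex finSumFinEquiv finSumFinEquiv).charpoly = _
  rw [Matrix.charpoly_reindex, Matrix.charpoly_fromBlocks_zero₂₁]

omit [Fintype F] in
/-- Conjugates have the same characteristic polynomial. -/
theorem charpoly_conj_gu {n : ℕ} (g y : Cfsg.GU n F q) :
    (((g * y * g⁻¹ : Cfsg.GU n F q) : GL (Fin n) F) : Matrix (Fin n) (Fin n) F).charpoly =
      ((y : GL (Fin n) F) : Matrix (Fin n) (Fin n) F).charpoly := by
  rw [Subgroup.coe_mul, Subgroup.coe_mul, Subgroup.coe_inv, Units.val_mul, Units.val_mul, Matrix.coe_units_inv]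
  exact Matrix.charpoly_units_conj (g : GL (Fin n) F) _

omit [Fintype F] in
/-- The blocks of an element with scalar power have scalar power. -/
theorem block_pow_scalar {r : ℕ} {z : F} (g : Cfsg.GU (a + b) F q) (y₁ : Cfsg.GU a F q) (y₂ : Cfsg.GU b F q)
    (h : (((g * H3.guBlock a b (y₁, y₂) * g⁻¹) ^ r : Cfsg.GU (a + b) F q) : GL (Fin (a + b)) F).1 = z • 1) :
    ((y₁ ^ r : Cfsg.GU a F q) : GL (Fin a) F).1 = z • 1 ∧ ((y₂ ^ r : Cfsg.GU b F q) : GL (Fin b) F).1 = z • 1 := by
  rw [conj_pow, ← map_pow] at h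
  have key : ∀ w, ((H3.guBlock a b ((y₁, y₂) ^ r)).1 : Matrix (Fin (a + b)) (Fin (a + b)) F) *ᵥ w = z • w := by
    intro w
    have h1 := congrArg (fun M => ((g⁻¹ : Cfsg.GU (a + b) F q).1 : Matrix (Fin (a + b)) (Fin (a + b)) F) *ᵥ
      (M *ᵥ ((g.1 : Matrix (Fin (a + b)) (Fin (a + b)) F) *ᵥ w))) h
    simp only [H3.mul_mulVec_GU, H3.inv_mulVec_GU, Matrix.smul_mulVec, Matrix.one_mulVec, Matrix.mulVec_smul] at h1
    exact h1
  constructor
  · refine Matrix.ext_iff_mulVec.2 fun u => funext fun i => ?_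
    have h2 := congrFun (key (Fin.append u 0)) (Fin.castAdd b i)
    rw [H3.guBlock_mulVec] at h2
    simpa [Matrix.smul_mulVec] using h2
  · refine Matrix.ext_iff_mulVec.2 fun v => funext fun i => ?_
    have h2 := congrFun (key (Fin.append 0 v)) (Fin.natAdd a i)
    rw [H3.guBlock_mulVec] at h2
    simpa [Matrix.smul_mulVec] using h2

/-- A factorisation of the characteristic polynomial into self-dual parts gives an invariant nondegenerate
subspace of a semisimple element. -/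
theorem exists_nondeg_of_charpoly (hF : Fintype.card F = q ^ 2) (p : ℕ) [Fact p.Prime] [CharP F p]
    {x : Cfsg.GU (a + b) F q} (hx : (orderOf x).Coprime p) {f₁ f₂ : F[X]}
    (h₁ : f₁.Monic) (hd₁ : f₁.natDegree = a) (h0₁ : f₁.coeff 0 ≠ 0)
    (hs₁ : H67.dualPoly (H3.conjQ hF) f₁ = f₁)
    (h₂ : f₂.Monic) (hd₂ : f₂.natDegree = b) (h0₂ : f₂.coeff 0 ≠ 0)
    (hs₂ : H67.dualPoly (H3.conjQ hF) f₂ = f₂)
    (hc : ((x : GL (Fin (a + b)) F) : Matrix (Fin (a + b)) (Fin (a + b)) F).charpoly = f₁ * f₂) :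
    ∃ W : Submodule F (Fin (a + b) → F), finrank F W = a ∧
      (∀ u ∈ W, u ≠ 0 → ∃ v ∈ W, Cfsg.hermForm (a + b) F q u v ≠ 0) ∧
      W.map (Matrix.toLin' ((x : GL (Fin (a + b)) F) : Matrix (Fin (a + b)) (Fin (a + b)) F)) ≤ W := by
  obtain ⟨y₁, hy₁, ho₁⟩ := H97.exists_gu_charpoly hF p h₁ hd₁ h0₁ hs₁
  obtain ⟨y₂, hy₂, ho₂⟩ := H97.exists_gu_charpoly hF p h₂ hd₂ h0₂ hs₂
  have hzo : (orderOf (H3.guBlock a b (y₁, y₂))).Coprime p := by
    refine Nat.Coprime.coprime_dvd_left (orderOf_map_dvd _ _) ?_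
    rw [Prod.orderOf]
    exact Nat.Coprime.coprime_dvd_left (Nat.lcm_dvd_mul _ _) (Nat.Coprime.mul_left ho₁ ho₂)
  refine exists_nondeg_of_isConj hF x y₁ y₂ (H66.gu_isConj_of_isConj hF _ _ ?_)
  refine H66.isConj_of_charpoly_eq p (by rwa [Subgroup.orderOf_coe]) (by rwa [Subgroup.orderOf_coe]) ?_
  rw [charpoly_guBlock, hy₁, hy₂]
  exact hc

end Cfsg.Agent.H98.UND
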