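import Cfsg.Agent.H98.UNondeg.Basic

set_option autoImplicit false

/-!
# Primes dividing the number of nondegenerate subspaces of a unitary space
-/

namespace Cfsg.Agent.H98.UND

open Module
open scoped Matrix

variable {F : Type*} [Field F] [Fintype F] {q a b : ℕ}

/-- The unitary group is the number of nondegenerate subspaces times two smaller unitary groups. -/
theorem card_GU_eq_nondeg (hF : Fintype.card F = q ^ 2) :
    Nat.card (Cfsg.GU (a + b) F q) =
      Nat.card {W : Submodule F (Fin (a + b) → F) // finrank F W = a ∧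
        ∀ u ∈ W, u ≠ 0 → ∃ v ∈ W, Cfsg.hermForm (a + b) F q u v ≠ 0} *
      (Nat.card (Cfsg.GU a F q) * Nat.card (Cfsg.GU b F q)) := by
  classical
  set W₀ := LinearMap.range (inlL F a b) with hW₀
  let L : Cfsg.GU (a + b) F q → Submodule F (Fin (a + b) → F) := fun g =>
    LinearMap.range ((Matrix.toLin' ((g : GL (Fin (a + b)) F) : Matrix (Fin (a + b)) (Fin (a + b)) F)).comp
      (inlL F a b))
  have hLd : ∀ g, finrank F (L g) = a ∧
      ∀ u ∈ L g, u ≠ 0 → ∃ v ∈ L g, Cfsg.hermForm (a + b) F q u v ≠ 0 := by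
    intro g
    have hg : ∀ u, ((Matrix.toLin' ((g : GL (Fin (a + b)) F) : Matrix (Fin (a + b)) (Fin (a + b)) F)).comp
        (inlL F a b)) u = (g.1 : Matrix (Fin (a + b)) (Fin (a + b)) F) *ᵥ Fin.append u 0 := fun u => by
      simp [inlL_apply]
    refine ⟨?_, ?_⟩
    · rw [LinearMap.finrank_range_of_inj, finrank_fin_fun]
      intro u v huv
      rw [hg, hg] at huv
      exact inlL_injective (Function.LeftInverse.injective (H3.inv_mulVec_GU g) huv)
    · rintro _ ⟨u, rfl⟩ hne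
      obtain ⟨i, hi⟩ : ∃ i, u i ≠ 0 := Function.ne_iff.1 fun h0 => hne ((congrArg _ h0).trans (map_zero _))
      refine ⟨_, ⟨Pi.single i 1, rfl⟩, ?_⟩
      rw [hg, hg, H3.GU_preserves, H3.hermForm_append, H3.hermForm_zero_left hF, add_zero, Cfsg.hermForm,
        Finset.sum_eq_single i (fun j _ hj => by
          simp [Pi.single_eq_of_ne hj, zero_pow (show q ≠ 0 by have := H3.two_le_q hF; omega)]) (by simp)]
      simpa using hi
  let φ : Cfsg.GU (a + b) F q → {W : Submodule F (Fin (a + b) → F) // finrank F W = a ∧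
      ∀ u ∈ W, u ≠ 0 → ∃ v ∈ W, Cfsg.hermForm (a + b) F q u v ≠ 0} := fun g => ⟨L g, hLd g⟩
  have hφ : Function.Surjective φ := fun W => by
    obtain ⟨g, hg⟩ := exists_frame hF W.1 W.2.1 W.2.2
    exact ⟨g, Subtype.ext hg⟩
  have hone : L 1 = W₀ := by simp [L, hW₀]
  obtain ⟨e⟩ := H3.nonempty_stab_nondeg_equiv hF (q := q) W₀ (hone ▸ (hLd 1).1) (fun u hu h0 => by
    by_contra hne
    obtain ⟨v, hv, huv⟩ := (hLd 1).2 u (hone ▸ hu) hne
    exact huv (h0 v (hone ▸ hv)))
  rw [H3.card_eq_mul_of_fibres φ hφ (H3.guStab (a + b) F q (W₀ : Set (Fin (a + b) → F))) ?_,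
    Nat.card_congr e.toEquiv, Nat.card_prod]
  intro g g'
  rw [Subtype.ext_iff]
  have himg : ∀ g : Cfsg.GU (a + b) F q, ∀ v, v ∈ L g ↔
      ((g⁻¹ : Cfsg.GU (a + b) F q).1 : Matrix (Fin (a + b)) (Fin (a + b)) F) *ᵥ v ∈ W₀ := by
    intro g v
    constructor
    · rintro ⟨u, rfl⟩
      refine ⟨u, ?_⟩
      rw [LinearMap.comp_apply, Matrix.toLin'_apply]
      exact (H3.inv_mulVec_GU g _).symm
    · rintro ⟨u, hu⟩
      refine ⟨u, ?_⟩
      rw [LinearMap.comp_apply, Matrix.toLin'_apply, hu]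
      have h := H3.inv_mulVec_GU g⁻¹ v
      rwa [inv_inv] at h
  constructor
  · intro h
    refine H3.mem_guStab_of_mapsTo fun v hv => ?_
    have h1 : (g'.1 : Matrix (Fin (a + b)) (Fin (a + b)) F) *ᵥ v ∈ L g' := (himg g' _).2 (by
      rw [H3.inv_mulVec_GU]; exact hv)
    rw [← (show L g = L g' from h)] at h1
    rw [SetLike.mem_coe, H3.mul_mulVec_GU]
    exact (himg g _).1 h1
  · intro h
    refine (Submodule.eq_of_le_of_finrank_eq (fun v hv => ?_) ((hLd g').1.trans (hLd g).1.symm)).symm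
    rw [himg] at hv ⊢
    have h1 := (H3.mem_guStab.1 h _).1 hv
    rw [H3.mul_mulVec_GU] at h1
    have h2 := H3.inv_mulVec_GU g'⁻¹ v
    rw [inv_inv] at h2
    rwa [h2] at h1

variable {r : ℕ} [Fact r.Prime]

/-- A prime dividing the number of nondegenerate subspaces. -/
theorem exists_neg_pow_of_dvd_nondeg (hF : Fintype.card F = q ^ 2) (hq : (q : ZMod r) ≠ 0)
    (hd : r ∣ Nat.card {W : Submodule F (Fin (a + b) → F) // finrank F W = a ∧
        ∀ u ∈ W, u ≠ 0 → ∃ v ∈ W, Cfsg.hermForm (a + b) F q u v ≠ 0}) :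
    ∃ j, b < j ∧ j ≤ a + b ∧ (-(q : ZMod r)) ^ j = 1 := by
  have h := card_GU_eq_nondeg (a := a) (b := b) hF
  rw [H3.card_GU hF, H3.card_GU hF b, show a + b = b + a from add_comm a b,
    Finset.prod_range_add] at h
  rw [show b + a = a + b from add_comm b a] at h
  set f : ℕ → ℕ := fun i => if Even i then q ^ (i + 1) + 1 else q ^ (i + 1) - 1
  set Pb := ∏ i ∈ Finset.range b, (if Even i then q ^ (i + 1) + 1 else q ^ (i + 1) - 1)
  have hq2 := H3.two_le_q hF
  have hPb : 0 < Pb := Finset.prod_pos fun i _ => by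
    have := Nat.one_lt_pow (show i + 1 ≠ 0 by omega) hq2
    split_ifs <;> omega
  have h' : q ^ ((a + b) * (a + b - 1) / 2) * ∏ x ∈ Finset.range a, f (b + x) =
      Nat.card {W : Submodule F (Fin (a + b) → F) // finrank F W = a ∧
        ∀ u ∈ W, u ≠ 0 → ∃ v ∈ W, Cfsg.hermForm (a + b) F q u v ≠ 0} *
      (Nat.card (Cfsg.GU a F q) * q ^ (b * (b - 1) / 2)) :=
    Nat.eq_of_mul_eq_mul_left hPb (by simp only [f]; linear_combination h)
  have hrdvd : r ∣ q ^ ((a + b) * (a + b - 1) / 2) * ∏ x ∈ Finset.range a, f (b + x) :=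
    h' ▸ dvd_mul_of_dvd_left hd _
  rw [← ZMod.natCast_eq_zero_iff, Nat.cast_mul, Nat.cast_pow, Nat.cast_prod, mul_eq_zero,
    Finset.prod_eq_zero_iff] at hrdvd
  obtain ⟨x, hx, hx0⟩ := hrdvd.resolve_left (pow_ne_zero _ hq)
  have := Finset.mem_range.1 hx
  refine ⟨b + x + 1, by omega, by omega, ?_⟩
  rw [neg_pow]
  simp only [f] at hx0
  split_ifs at hx0 with he
  · rw [Nat.cast_add, Nat.cast_pow, Nat.cast_one] at hx0
    rw [(he.add_one).neg_one_pow, eq_neg_of_add_eq_zero_left hx0]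
    simp
  · rw [Nat.cast_sub (Nat.one_le_pow _ _ (by omega)), Nat.cast_pow, Nat.cast_one, sub_eq_zero] at hx0
    rw [(Nat.not_even_iff_odd.1 he).add_one.neg_one_pow, hx0, one_mul]

end Cfsg.Agent.H98.UND
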