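import Cfsg.Agent.H98.UNondeg.Basic
import Cfsg.Agent.H97.HermCriteria

set_option autoImplicit false

/-!
# Invariant nondegenerate subspaces of unitary elements of prime order different from the characteristic
-/

namespace Cfsg.Agent.H98.UND

open Module Polynomial
open scoped Matrix

variable {F : Type*} [Field F] [Fintype F] {q p r : ℕ} [Fact p.Prime] [CharP F p] [Fact r.Prime]

/-- Fixed nondegenerate subspaces of unitary elements of order `r` in terms of multiplicities. -/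
theorem gu_nondeg_criterion (hF : Fintype.card F = q ^ 2) (hne : r ≠ p)
    {P : Prop} [Decidable P] (hP : (∃ j : ℕ, ((q ^ 2 : ℕ) : ZMod r) ^ j = -(q : ZMod r)) ↔ P)
    {m k d : ℕ} (hd : d = orderOf ((q ^ 2 : ℕ) : ZMod r)) :
    (∀ f : Cfsg.GU (m + k) F q, f ^ r = 1 → f ≠ 1 →
      ∃ W : Submodule F (Fin (m + k) → F), finrank F W = m ∧
        (∀ u ∈ W, u ≠ 0 → ∃ v ∈ W, Cfsg.hermForm (m + k) F q u v ≠ 0) ∧
        W.map (Matrix.toLin' ((f : GL (Fin (m + k)) F) : Matrix (Fin (m + k)) (Fin (m + k)) F)) ≤ W) ↔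
    ∀ L, 0 < L → d * L ≤ m + k → (¬ P → Even L) →
      ∃ j, j ≤ L ∧ (¬ P → Even j) ∧ d * j ≤ m ∧ d * (L - j) ≤ k := by
  classical
  have hrp : r.Prime := Fact.out
  have hr : (r : F) ≠ 0 := H67.cast_ne_zero_of_prime_ne (K := F) hrp hne
  obtain ⟨e, hqe, hσ⟩ := H97.exists_conjQ_pow hF p
  have hσσ := H3.conjQ_conjQ hF
  let π : H67.CycFac r F → H67.CycFac r F := H67.cycDual hr hrp hσ hσσ
  have hππ : ∀ Q, π (π Q) = Q := H67.cycDual_cycDual hr hrp hσ hσσ
  have hdc : d = orderOf (Fintype.card F : ZMod r) := by rw [hd, hF]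
  have hdn : d = orderOf (Nat.card F : ZMod r) := by rw [hdc, Nat.card_eq_fintype_card]
  have hdpos : 0 < d := hdc ▸ H67.orderOf_card_pos hr hrp
  have hself : ∀ Q, π Q = Q ↔ P := fun Q => by
    rw [← hP]
    refine Subtype.ext_iff.trans ((H67.dual_eq_self_iff hr hrp hσ hσσ Q).trans ?_)
    rw [hF, hqe]
  have hperm : ∀ g : H67.CycFac r F → ℕ, ∑ Q, g (π Q) = ∑ Q, g Q := fun g =>
    Fintype.sum_equiv ⟨π, π, hππ, hππ⟩ (fun Q => g (π Q)) g fun _ => rfl
  have heven : ¬ P → ∀ g : H67.CycFac r F → ℕ, (∀ Q, g (π Q) = g Q) → Even (∑ Q, g Q) := fun hp g hg => by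
    obtain ⟨R, hR, -⟩ := H67.exists_reps π hππ (fun Q h => hp ((hself Q).1 h))
    refine ⟨∑ Q, if R Q then g Q else 0, ?_⟩
    nth_rw 2 [← hperm]
    rw [← Finset.sum_add_distrib]
    exact Finset.sum_congr rfl fun Q _ => by by_cases hQ : R Q <;> simp [hR, hQ, hg]
  constructor
  · intro H L hL hLn hLe
    have hne' : Nonempty (H67.CycFac r F) := by
      refine Fintype.card_pos_iff.1 ?_
      have h := H67.card_cycFac (K := F) hr hrp
      have := hrp.two_le
      rcases Nat.eq_zero_or_pos (Fintype.card (H67.CycFac r F)) with h0 | h0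
      · rw [h0, zero_mul] at h; omega
      · exact h0
    obtain ⟨Q₀⟩ := hne'
    obtain ⟨a, had, has⟩ : ∃ a : H67.CycFac r F → ℕ, (∀ Q, a (π Q) = a Q) ∧ ∑ Q, a Q = L := by
      by_cases hp : P
      · exact ⟨fun Q => if Q = Q₀ then L else 0, fun Q => by rw [(hself Q).2 hp], by simp⟩
      · obtain ⟨l, rfl⟩ := hLe hp
        refine ⟨fun Q => (if Q = Q₀ then l else 0) + (if π Q = Q₀ then l else 0), fun Q => ?_, ?_⟩
        · simp only [hππ]; exact add_comm _ _
        · rw [Finset.sum_add_distrib, hperm fun Q => if Q = Q₀ then l else 0]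
          simp
    have hle : orderOf (Fintype.card F : ZMod r) * ∑ Q, a Q ≤ m + k := by rw [has, ← hdc]; exact hLn
    obtain ⟨f, hfc, hfo⟩ := H97.exists_gu_charpoly hF p (H67.polyOf_monic (m + k) a)
      (H67.polyOf_natDegree hr hrp hle) (H67.polyOf_coeff_zero hr hrp (m + k) a) (by
        rw [H67.dualPoly_polyOf hr hrp hσ hσσ, show a ∘ H67.cycDual hr hrp hσ hσσ = a from funext had])
    have hfr : f ^ r = 1 := by
      have h := H67.pow_eq_one_of_charpoly (p := p) hr hrp (g := (f : GL (Fin (m + k)) F))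
        (by rwa [Subgroup.orderOf_coe]) hfc
      exact Subtype.ext (by rw [SubgroupClass.coe_pow, h]; rfl)
    have hf1 : f ≠ 1 := by
      rintro rfl
      have h1 : H67.polyOf (r := r) (m + k) (0 : H67.CycFac r F → ℕ) =
          (((1 : Cfsg.GU (m + k) F q) : GL (Fin (m + k)) F) : Matrix (Fin (m + k)) (Fin (m + k)) F).charpoly := by
        simp [H67.polyOf, Matrix.charpoly_one]
      rw [← h1] at hfc
      have h2 := congrArg (fun g => H67.multOf (r := r) g) hfc
      simp only [H67.multOf_polyOf hr hrp] at h2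
      rw [← h2] at has
      simp at has
      omega
    obtain ⟨W, hWd, hWn, hWf⟩ := H f hfr hf1
    obtain ⟨g, y₁, y₂, hg⟩ := exists_block_of_nondeg hF f W hWd hWn hWf
    subst hg
    have hz : ((((g * H3.guBlock m k (y₁, y₂) * g⁻¹) ^ r : Cfsg.GU (m + k) F q) : GL (Fin (m + k)) F)).1 =
        (1 : F) • 1 := by rw [hfr, one_smul]; rfl
    obtain ⟨h1, h2⟩ := block_pow_scalar g y₁ y₂ hz
    have hy₁ : y₁ ^ r = 1 := Subtype.ext (Units.ext (by rw [h1, one_smul]; rfl))
    have hy₂ : y₂ ^ r = 1 := Subtype.ext (Units.ext (by rw [h2, one_smul]; rfl))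
    have hT₁ := H97.gu_end_pow y₁ hy₁
    obtain ⟨hc₁, hle₁⟩ := H97.charpoly_eq_polyOf_mult hr hT₁
    obtain ⟨hc₂, hle₂⟩ := H97.charpoly_eq_polyOf_mult hr (H97.gu_end_pow y₂ hy₂)
    rw [finrank_fin_fun] at hc₁ hle₁ hc₂ hle₂
    rw [Matrix.charpoly_toLin'] at hc₁ hc₂
    rw [charpoly_conj_gu, charpoly_guBlock, hc₁, hc₂, H97.polyOf_mul hle₁ hle₂] at hfc
    have hsum := congrArg (fun g => H67.multOf (r := r) g) hfc
    simp only [H67.multOf_polyOf hr hrp] at hsum
    refine ⟨∑ Q, H97.multEnd r (Matrix.toLin' ((y₁ : GL (Fin m) F) : Matrix (Fin m) (Fin m) F)) Q, ?_,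
      fun hp => heven hp _ fun Q => H97.mult_selfDual hr hσ hσσ (H97.herm_hrefl hF m) (H97.herm_hnd hF m)
        (H97.gu_end_isometry hF y₁) hT₁ Q, hdn ▸ hle₁, ?_⟩
    · rw [← has, ← hsum]; simp [Finset.sum_add_distrib]
    · rw [← has, ← hsum]
      simp only [Pi.add_apply, Finset.sum_add_distrib, Nat.add_sub_cancel_left]
      exact hdn ▸ hle₂
  · intro H f hfr hf1
    set M : Matrix (Fin (m + k)) (Fin (m + k)) F :=
      ((f : GL (Fin (m + k)) F) : Matrix (Fin (m + k)) (Fin (m + k)) F)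
    set T := Matrix.toLin' M
    have hTr : T ^ r = 1 := H97.gu_end_pow f hfr
    obtain ⟨hc, hle⟩ := H97.charpoly_eq_polyOf_mult hr hTr
    rw [finrank_fin_fun] at hc hle
    set a := H97.multEnd r T
    have hpos : 0 < ∑ Q, a Q := by
      refine Nat.pos_of_ne_zero fun h => hf1 ?_
      have h1 := H97.finrank_fixed_add_mult (r := r) hr hTr
      rw [h, mul_zero, add_zero] at h1
      have htop : ∀ v, T v = v := fun v =>
        H97.mem_fixedSpace.1 (Submodule.eq_top_of_finrank_eq h1 ▸ Submodule.mem_top : v ∈ H97.fixedSpace T)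
      refine Subtype.ext (Units.ext (Matrix.ext_iff_mulVec.2 fun v => ?_))
      rw [← Matrix.toLin'_apply, htop]
      simp
    have had : ∀ Q, a (π Q) = a Q := fun Q =>
      H97.mult_selfDual hr hσ hσσ (H97.herm_hrefl hF (m + k)) (H97.herm_hnd hF (m + k))
        (H97.gu_end_isometry hF f) hTr Q
    obtain ⟨j, hj, hje, hjm, hjk⟩ := H _ hpos (hdn ▸ hle) (fun hp => heven hp a had)
    obtain ⟨a₁, ha₁, hs₁, hd₁⟩ : ∃ a₁ : H67.CycFac r F → ℕ, (∀ Q, a₁ Q ≤ a Q) ∧ ∑ Q, a₁ Q = j ∧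
        ∀ Q, a₁ (π Q) = a₁ Q := by
      by_cases hp : P
      · obtain ⟨a₁, h1, h2⟩ := H97.exists_sub_of_sum a hj
        exact ⟨a₁, h1, h2, fun Q => by rw [(hself Q).2 hp]⟩
      · obtain ⟨R, hR, -⟩ := H67.exists_reps π hππ (fun Q h => hp ((hself Q).1 h))
        obtain ⟨i, rfl⟩ := hje hp
        have hhalf : 2 * ∑ Q, (if R Q then a Q else 0) = ∑ Q, a Q := by
          rw [two_mul]
          nth_rw 2 [← hperm]
          rw [← Finset.sum_add_distrib]
          exact Finset.sum_congr rfl fun Q _ => by by_cases hQ : R Q <;> simp [hR, hQ, had]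
        obtain ⟨a₁, h1, h2⟩ := H97.exists_sub_of_sum (fun Q => if R Q then a Q else 0) (j := i) (by omega)
        refine ⟨fun Q => a₁ Q + a₁ (π Q), fun Q => ?_, ?_, fun Q => by simp only [hππ]; exact add_comm _ _⟩
        · have h3 := h1 Q
          have h4 := h1 (π Q)
          simp only [hR, had] at h3 h4
          simp only
          split_ifs at h3 h4 <;> omega
        · rw [Finset.sum_add_distrib, hperm, h2]
    have hsum : ∑ Q, a Q = j + ∑ Q, (a Q - a₁ Q) := by
      rw [← hs₁, ← Finset.sum_add_distrib]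
      exact Finset.sum_congr rfl fun Q _ => by have := ha₁ Q; omega
    have hlem : orderOf (Fintype.card F : ZMod r) * ∑ Q, a₁ Q ≤ m := by rw [hs₁, ← hdc]; exact hjm
    have hlek : orderOf (Fintype.card F : ZMod r) * ∑ Q, (a Q - a₁ Q) ≤ k := by
      rw [← hdc]; rw [hsum, Nat.add_sub_cancel_left] at hjk; exact hjk
    refine exists_nondeg_of_charpoly hF p (f₁ := H67.polyOf m a₁) (f₂ := H67.polyOf k fun Q => a Q - a₁ Q)
      (Nat.Coprime.coprime_dvd_left (orderOf_dvd_of_pow_eq_one hfr) ((Nat.coprime_primes hrp Fact.out).2 hne))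
      (H67.polyOf_monic _ _) (H67.polyOf_natDegree hr hrp hlem) (H67.polyOf_coeff_zero hr hrp _ _) ?_
      (H67.polyOf_monic _ _) (H67.polyOf_natDegree hr hrp hlek) (H67.polyOf_coeff_zero hr hrp _ _) ?_ ?_
    · rw [H67.dualPoly_polyOf hr hrp hσ hσσ]
      exact congrArg _ (funext hd₁)
    · rw [H67.dualPoly_polyOf hr hrp hσ hσσ]
      exact congrArg _ (funext fun Q => by simp only [Function.comp_apply]; rw [had, hd₁])
    · rw [H97.polyOf_mul (by rwa [Nat.card_eq_fintype_card]) (by rwa [Nat.card_eq_fintype_card]),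
        ← Matrix.charpoly_toLin', hc]
      exact congrArg _ (funext fun Q => by simp only [Pi.add_apply]; have := ha₁ Q; omega)

/-- The arithmetic of the criterion; `c` is the size of a piece. -/
theorem nondeg_arith {m k c : ℕ} (hc0 : 0 < c) (hmk : m < k)
    (hbig : ∃ j, k < j ∧ j ≤ m + k ∧ c ∣ j) :
    (∀ L, 0 < L → c * L ≤ m + k → ∃ j, j ≤ L ∧ c * j ≤ m ∧ c * (L - j) ≤ k) ↔
      (c ≤ m ∧ m % c ≤ (m + k) % c) := by
  obtain ⟨j, hkj, hjn, ⟨t, rfl⟩⟩ := hbig
  have hdm := Nat.div_add_mod m c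
  have hdn := Nat.div_add_mod (m + k) c
  have htle : t ≤ (m + k) / c := (Nat.le_div_iff_mul_le hc0).2 (by rw [mul_comm]; exact hjn)
  have hct : c * t ≤ c * ((m + k) / c) := Nat.mul_le_mul_left c htle
  have hn1 : 0 < (m + k) / c := lt_of_lt_of_le (Nat.pos_of_ne_zero fun h => by
    rw [h, mul_zero] at hkj; omega) htle
  constructor
  · intro H
    obtain ⟨i, -, hi2, hi3⟩ := H _ hn1 (Nat.mul_div_le _ _)
    have hile : i ≤ m / c := (Nat.le_div_iff_mul_le hc0).2 (by rw [mul_comm]; exact hi2)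
    have hci : c * i ≤ c * (m / c) := Nat.mul_le_mul_left c hile
    rw [Nat.mul_sub] at hi3
    refine ⟨?_, by omega⟩
    by_contra hlt
    rw [Nat.div_eq_of_lt (not_le.1 hlt), Nat.le_zero] at hile
    subst hile
    omega
  · rintro ⟨-, hmod⟩ L - hLn
    have hLle : L ≤ (m + k) / c := (Nat.le_div_iff_mul_le hc0).2 (by rw [mul_comm]; exact hLn)
    have hcL : c * L ≤ c * ((m + k) / c) := Nat.mul_le_mul_left c hLle
    rcases le_or_gt L (m / c) with h | h
    · have : c * L ≤ c * (m / c) := Nat.mul_le_mul_left c h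
      exact ⟨L, le_rfl, by omega, by simp⟩
    · refine ⟨m / c, h.le, by omega, ?_⟩
      rw [Nat.mul_sub]
      omega

/-- The multiplicity condition in terms of pieces. -/
theorem pieces_iff {P : Prop} [Decidable P] {m k d : ℕ} :
    (∀ L, 0 < L → d * L ≤ m + k → (¬ P → Even L) →
      ∃ j, j ≤ L ∧ (¬ P → Even j) ∧ d * j ≤ m ∧ d * (L - j) ≤ k) ↔
    (∀ L, 0 < L → (if P then d else 2 * d) * L ≤ m + k →
      ∃ j, j ≤ L ∧ (if P then d else 2 * d) * j ≤ m ∧ (if P then d else 2 * d) * (L - j) ≤ k) := by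
  by_cases hP : P
  · simp [hP]
  · simp only [if_neg hP]
    constructor
    · intro H L hL hLn
      obtain ⟨j, h1, h2, h3, h4⟩ := H (2 * L) (by omega) (by rw [← mul_assoc, mul_comm d 2]; exact hLn)
        fun _ => even_two_mul L
      obtain ⟨i, rfl⟩ := h2 hP
      refine ⟨i, by omega, ?_, ?_⟩
      · rw [mul_comm 2 d, mul_assoc, two_mul]; exact h3
      · rw [mul_comm 2 d, mul_assoc, Nat.mul_sub 2, two_mul i]; exact h4
    · intro H L hL hLn hLe
      obtain ⟨l, rfl⟩ := hLe hP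
      rw [← two_mul] at hL hLn ⊢
      obtain ⟨i, h1, h2, h3⟩ := H l (by omega) (by rw [mul_comm 2 d, mul_assoc]; exact hLn)
      refine ⟨2 * i, by omega, fun _ => even_two_mul i, ?_, ?_⟩
      · rw [← mul_assoc, mul_comm d 2]; exact h2
      · rw [← Nat.mul_sub 2, ← mul_assoc, mul_comm d 2]; exact h3

end Cfsg.Agent.H98.UND
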