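import Cfsg.Agent.H98.UNondeg.Basic
import Cfsg.Agent.H97.HermScalar

set_option autoImplicit false

/-!
# Invariant nondegenerate subspaces of unitary elements with scalar square or scalar `r`-th power
-/

namespace Cfsg.Agent.H98.UND

open Module Polynomial
open scoped Matrix

variable {F : Type*} [Field F] [Fintype F] {q p m k : ℕ} [Fact p.Prime] [CharP F p]

omit [Fintype F] [Fact p.Prime] [CharP F p] in
/-- Split powers of two linear factors. -/
theorem pow_pair_facts (u v : ℕ) {s : F} (hs0 : s ≠ 0) :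
    ((X - C s) ^ u * (X - C (-s)) ^ v).Monic ∧ ((X - C s) ^ u * (X - C (-s)) ^ v).natDegree = u + v ∧
      ((X - C s) ^ u * (X - C (-s)) ^ v).coeff 0 ≠ 0 := by
  refine ⟨((monic_X_sub_C s).pow u).mul ((monic_X_sub_C (-s)).pow v), ?_, ?_⟩
  · rw [((monic_X_sub_C s).pow _).natDegree_mul ((monic_X_sub_C (-s)).pow _), natDegree_pow, natDegree_pow,
      natDegree_X_sub_C, natDegree_X_sub_C, mul_one, mul_one]
  · rw [coeff_zero_eq_eval_zero]
    simp [hs0]

omit [Fintype F] [CharP F p] in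
/-- The half exponent arithmetic for scalar squares. -/
theorem no_half_neg {n : ℕ} (hn : Even n) (hn0 : 0 < n) (_hq : q % 4 = 3)
    (hv : padicValNat 2 n ≤ padicValNat 2 (q + 1)) {u : F} (h2 : (2 : F) ≠ 0)
    (hu : u ^ ((q + 1) / 2) = -1) : u ^ (n / 2) ≠ 1 := by
  intro h
  set α := padicValNat 2 (q + 1)
  obtain ⟨o, ho⟩ : 2 ^ α ∣ q + 1 := pow_padicValNat_dvd
  obtain ⟨o', ho'⟩ : 2 ^ padicValNat 2 n ∣ n := pow_padicValNat_dvd
  have hoodd : Odd o' := by
    rw [← Nat.not_even_iff_odd]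
    rintro ⟨o'', rfl⟩
    exact pow_succ_padicValNat_not_dvd (p := 2) (n := n) (by omega) ⟨o'', ho'.trans (by ring)⟩
  obtain ⟨e, he⟩ : ∃ e, padicValNat 2 n = e + 1 := ⟨padicValNat 2 n - 1, by
    have := one_le_padicValNat_of_dvd (p := 2) (by omega : n ≠ 0) hn.two_dvd
    omega⟩
  rw [he] at hv ho'
  have hn2 : n / 2 = 2 ^ e * o' := by
    rw [ho', pow_succ, mul_comm (2 ^ e) 2, mul_assoc, Nat.mul_div_cancel_left _ two_pos]
  obtain ⟨d, hd⟩ : ∃ d, α = e + 1 + d := ⟨α - (e + 1), by omega⟩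
  have hq2 : (q + 1) / 2 = 2 ^ e * 2 ^ d * o := by
    rw [ho, hd, show 2 ^ (e + 1 + d) * o = 2 * (2 ^ e * 2 ^ d * o) by ring, Nat.mul_div_cancel_left _ two_pos]
  have h1 : u ^ ((q + 1) / 2 * o') = 1 := by
    rw [hq2, show 2 ^ e * 2 ^ d * o * o' = n / 2 * (2 ^ d * o) by rw [hn2]; ring, pow_mul, h, one_pow]
  rw [pow_mul, hu, hoodd.neg_one_pow] at h1
  exact h2 (by linear_combination -h1)

/-- Unitary elements with scalar square fix nondegenerate subspaces. -/
theorem exists_nondeg_sq (hF : Fintype.card F = q ^ 2) (hp2 : p ≠ 2) (hm : 1 ≤ m)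
    (hcond : Odd (m + k) ∨ Even m ∨
      (padicValNat 2 (m + k) ≤ padicValNat 2 (q + 1) ∧ q % 4 = 3)) (x : Cfsg.GU (m + k) F q)
    (hdet : ((x : GL (Fin (m + k)) F) : Matrix (Fin (m + k)) (Fin (m + k)) F).det = 1) {z : F}
    (hz : ((x ^ 2 : Cfsg.GU (m + k) F q) : GL (Fin (m + k)) F).1 = z • 1) (hmk : m < k) :
    ∃ W : Submodule F (Fin (m + k) → F), finrank F W = m ∧
      (∀ u ∈ W, u ≠ 0 → ∃ v ∈ W, Cfsg.hermForm (m + k) F q u v ≠ 0) ∧
      W.map (Matrix.toLin' ((x : GL (Fin (m + k)) F) : Matrix (Fin (m + k)) (Fin (m + k)) F)) ≤ W := by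
  classical
  set M : Matrix (Fin (m + k)) (Fin (m + k)) F := ((x : GL (Fin (m + k)) F) : Matrix (Fin (m + k)) (Fin (m + k)) F)
  have hn : 1 ≤ m + k := by omega
  have hz1 := H97.norm_of_scalar hF hn (x ^ 2) hz
  have hMM : M ^ 2 = z • 1 := by
    rw [← hz, SubgroupClass.coe_pow, Units.val_pow_eq_pow_val]
  have hz0 : z ≠ 0 := fun h => by rw [h, zero_pow (by omega)] at hz1; exact zero_ne_one hz1
  have hqodd : Odd q := by
    obtain ⟨e, he, -⟩ := H97.exists_conjQ_pow hF p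
    rw [he]; exact ((Fact.out : p.Prime).odd_of_ne_two hp2).pow
  obtain ⟨t, ht⟩ := hqodd
  obtain ⟨s, hs⟩ := H97.exists_pow_eq_of_pow_eq_one (r := 2) (t := t * (q + 1))
    (by rw [H97.card_sub_one_factor hF, show q - 1 = 2 * t by omega]; ring) hz0
    (by rw [mul_comm, pow_mul, hz1, one_pow])
  have h2 : (2 : F) ≠ 0 := fun h => hp2 ((Nat.prime_dvd_prime_iff_eq (Fact.out : p.Prime) Nat.prime_two).1
    ((CharP.cast_eq_zero_iff F p 2).1 (by exact_mod_cast h)))
  have hs0 : s ≠ 0 := fun h => by rw [h, zero_pow two_ne_zero] at hs; exact hz0 hs.symm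
  have hss : -s ≠ s := fun h => by
    have h3 : (2 : F) * s = 0 := by linear_combination -h
    exact hs0 ((mul_eq_zero.1 h3).resolve_left h2)
  have hannih : aeval M ((X - C s) * (X - C (-s)) : F[X]) = 0 := by
    rw [show (X - C s) * (X - C (-s)) = (X ^ 2 - C z : F[X]) by
      rw [← hs]; simp only [map_neg, map_pow]; ring]
    simp [hMM, Algebra.algebraMap_eq_smul_one]
  obtain ⟨a, ha⟩ := H97.exists_eq_prod_pow M.charpoly_monic ![X - C s, X - C (-s)] (by
      intro i j h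
      have hne : (X - C s : F[X]) ≠ X - C (-s) := fun e => hss (C_inj.1 (sub_right_inj.1 e)).symm
      fin_cases i <;> fin_cases j
      · rfl
      · exact absurd h hne
      · exact absurd h.symm hne
      · rfl) (by
    intro Q hQm hQ hQd
    rcases hQ.prime.dvd_mul.1 (H97.dvd_of_dvd_charpoly_of_aeval hannih hQ hQd) with h | h
    · exact ⟨0, eq_of_monic_of_associated hQm (monic_X_sub_C s)
        (hQ.associated_of_dvd (irreducible_X_sub_C s) h)⟩
    · exact ⟨1, eq_of_monic_of_associated hQm (monic_X_sub_C (-s))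
        (hQ.associated_of_dvd (irreducible_X_sub_C (-s)) h)⟩)
  rw [Fin.prod_univ_two] at ha
  simp only [Matrix.cons_val_zero, Matrix.cons_val_one] at ha
  set e₁ := a 0
  set e₂ := a 1
  have hdeg : e₁ + e₂ = m + k := by
    have h := M.charpoly_natDegree_eq_dim
    rw [ha, (pow_pair_facts e₁ e₂ hs0).2.1, Fintype.card_fin] at h
    exact h
  have hxo : (orderOf x).Coprime p := by
    refine Nat.Coprime.coprime_dvd_left (orderOf_dvd_of_pow_eq_one (x := x) (n := 2 * (q + 1)) ?_) ?_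
    · refine Subtype.ext (Units.ext ?_)
      rw [SubgroupClass.coe_pow, Units.val_pow_eq_pow_val, pow_mul, hMM, _root_.smul_pow, one_pow, hz1, one_smul]
      rfl
    · refine Nat.Coprime.mul_left ((Nat.coprime_primes Nat.prime_two Fact.out).2 (Ne.symm hp2)) ?_
      obtain ⟨e, he, -⟩ := H97.exists_conjQ_pow hF p
      refine ((Fact.out : p.Prime).coprime_iff_not_dvd.2 fun hd => ?_).symm
      have he0 : e ≠ 0 := by rintro rfl; have := H3.two_le_q hF; rw [pow_zero] at he; omega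
      exact (Fact.out : p.Prime).not_dvd_one ((Nat.dvd_add_right (he ▸ dvd_pow_self p he0)).1 hd)
  have hnorm : s ^ (q + 1) = 1 ∨ s ^ (q + 1) = -1 :=
    sq_eq_one_iff.1 (by rw [← pow_mul, mul_comm, pow_mul, hs, hz1])
  have hdual1 : ∀ u : F, u ≠ 0 → H67.dualPoly (H3.conjQ hF) (X - C u) = X - C (u ^ q)⁻¹ := fun u hu => by
    have := H97.dualPoly_X_pow_sub_C (H3.conjQ hF) Nat.one_pos hu
    simpa using this
  -- a choice of self-dual parts
  have finish : ∀ d₁ d₂ : ℕ, d₁ ≤ e₁ → d₂ ≤ e₂ → d₁ + d₂ = m →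
      (∀ u v : ℕ, (u = d₁ ∧ v = d₂) ∨ (u = e₁ - d₁ ∧ v = e₂ - d₂) →
        H67.dualPoly (H3.conjQ hF) ((X - C s) ^ u * (X - C (-s)) ^ v) = (X - C s) ^ u * (X - C (-s)) ^ v) →
      ∃ W : Submodule F (Fin (m + k) → F), finrank F W = m ∧
        (∀ u ∈ W, u ≠ 0 → ∃ v ∈ W, Cfsg.hermForm (m + k) F q u v ≠ 0) ∧
        W.map (Matrix.toLin' M) ≤ W := by
    intro d₁ d₂ hd₁ hd₂ hd hdual
    obtain ⟨hm₁, hn₁, hc₁⟩ := pow_pair_facts d₁ d₂ hs0
    obtain ⟨hm₂, hn₂, hc₂⟩ := pow_pair_facts (e₁ - d₁) (e₂ - d₂) hs0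
    refine exists_nondeg_of_charpoly (b := k) hF p hxo hm₁ (hn₁.trans hd) hc₁ (hdual _ _ (Or.inl ⟨rfl, rfl⟩))
      hm₂ (hn₂.trans (by omega)) hc₂ (hdual _ _ (Or.inr ⟨rfl, rfl⟩)) ?_
    refine ha.trans ?_
    rw [mul_mul_mul_comm, ← pow_add, ← pow_add, Nat.add_sub_cancel' hd₁, Nat.add_sub_cancel' hd₂]
  rcases hnorm with h | h
  · have hinv : (s ^ q)⁻¹ = s := inv_eq_of_mul_eq_one_right (by rw [← pow_succ, h])
    have hd1 : H67.dualPoly (H3.conjQ hF) (X - C s) = X - C s := by rw [hdual1 s hs0, hinv]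
    have hd2 : H67.dualPoly (H3.conjQ hF) (X - C (-s)) = X - C (-s) := by
      rw [hdual1 _ (neg_ne_zero.2 hs0), Odd.neg_pow ⟨t, ht⟩, inv_neg, hinv]
    exact finish (min e₁ m) (m - min e₁ m) (min_le_left _ _) (by omega) (by omega) fun u v _ => by
      rw [H67.dualPoly_mul, H67.dualPoly_pow, H67.dualPoly_pow, hd1, hd2]
  · have hinv : (s ^ q)⁻¹ = -s := inv_eq_of_mul_eq_one_right (by rw [mul_neg, ← pow_succ, h, neg_neg])
    have hd1 : H67.dualPoly (H3.conjQ hF) (X - C s) = X - C (-s) := by rw [hdual1 s hs0, hinv]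
    have hd2 : H67.dualPoly (H3.conjQ hF) (X - C (-s)) = X - C s := by
      rw [hdual1 _ (neg_ne_zero.2 hs0), Odd.neg_pow ⟨t, ht⟩, inv_neg, hinv, neg_neg]
    have heq : e₁ = e₂ := by
      have hself : H67.dualPoly (H3.conjQ hF) M.charpoly = M.charpoly :=
        H66.dualPoly_charpoly_of_mem_GU hF x.2
      rw [ha, H67.dualPoly_mul, H67.dualPoly_pow, H67.dualPoly_pow, hd1, hd2] at hself
      have hco : IsCoprime (X - C s) (X - C (-s)) := isCoprime_X_sub_C_of_isUnit_sub (by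
        rw [sub_neg_eq_add, ← two_mul]; exact (mul_ne_zero h2 hs0).isUnit)
      have key : ∀ u v : ℕ, (X - C (-s)) ^ u * (X - C s) ^ v = (X - C s) ^ u * (X - C (-s)) ^ v → u ≤ v := by
        intro u v huv
        have h1 : (X - C s) ^ u ∣ (X - C (-s)) ^ u * (X - C s) ^ v := huv ▸ dvd_mul_right _ _
        have h2 := natDegree_le_of_dvd ((hco.pow (m := u) (n := u)).dvd_of_dvd_mul_left h1)
          (pow_ne_zero _ (X_sub_C_ne_zero s))
        rwa [natDegree_pow, natDegree_pow, natDegree_X_sub_C, mul_one, mul_one] at h2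
      exact le_antisymm (key _ _ hself) (key _ _ (by rw [mul_comm, ← hself]; ring))
    have hne : Even (m + k) := ⟨e₁, by omega⟩
    have hme : Even m := by
      rcases hcond with ho | he | ⟨hv, hq4⟩
      · exact absurd hne (Nat.not_even_iff_odd.2 ho)
      · exact he
      · exfalso
        refine no_half_neg (F := F) (u := -z) hne hn hq4 hv h2 ?_ ?_
        · rw [Even.neg_pow (Nat.even_iff.2 (by omega)), ← hs, ← pow_mul,
            show 2 * ((q + 1) / 2) = q + 1 by omega, h]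
        · rw [show (m + k) / 2 = e₁ by omega]
          refine Eq.trans ?_ hdet
          rw [H97.det_eq_charpoly_eval, ha, ← heq, ← mul_pow,
            show (X - C s) * (X - C (-s)) = (X ^ 2 - C z : F[X]) by
              rw [← hs]; simp only [map_neg, map_pow]; ring,
            eval_pow, eval_sub, eval_pow, eval_X, eval_C, zero_pow two_ne_zero, zero_sub,
            hne.neg_one_pow, one_mul]
    obtain ⟨l, hl⟩ := hme
    refine finish l l (by omega) (by omega) (by omega) fun u v huv => ?_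
    obtain rfl : u = v := by omega
    rw [H67.dualPoly_mul, H67.dualPoly_pow, H67.dualPoly_pow, hd1, hd2, mul_comm]

/-- An element of determinant one with scalar square fixing no nondegenerate subspace of odd dimension. -/
theorem exists_sq_no_nondeg (hF : Fintype.card F = q ^ 2) (hp2 : p ≠ 2) (hm : Odd m) (hne : Even (m + k))
    (hcond : ¬ (padicValNat 2 (m + k) ≤ padicValNat 2 (q + 1) ∧ q % 4 = 3)) :
    ∃ (x : Cfsg.GU (m + k) F q) (z : F),
      ((x : GL (Fin (m + k)) F) : Matrix (Fin (m + k)) (Fin (m + k)) F).det = 1 ∧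
      ((x ^ 2 : Cfsg.GU (m + k) F q) : GL (Fin (m + k)) F).1 = z • 1 ∧
      (∀ u : F, ((x : GL (Fin (m + k)) F) : Matrix (Fin (m + k)) (Fin (m + k)) F) ≠ u • 1) ∧
      ∀ W : Submodule F (Fin (m + k) → F), finrank F W = m →
        (∀ u ∈ W, u ≠ 0 → ∃ v ∈ W, Cfsg.hermForm (m + k) F q u v ≠ 0) →
        ¬ W.map (Matrix.toLin' ((x : GL (Fin (m + k)) F) : Matrix (Fin (m + k)) (Fin (m + k)) F)) ≤ W := by
  classical
  set n := m + k with hn'
  have hn0 : 0 < n := by obtain ⟨l, hl⟩ := hm; omega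
  have hqodd : Odd q := by
    obtain ⟨e, he, -⟩ := H97.exists_conjQ_pow hF p
    rw [he]; exact ((Fact.out : p.Prime).odd_of_ne_two hp2).pow
  have hqm : q % 2 = 1 := Nat.odd_iff.1 hqodd
  have h2 : (2 : F) ≠ 0 := fun h => hp2 ((Nat.prime_dvd_prime_iff_eq (Fact.out : p.Prime) Nat.prime_two).1
    ((CharP.cast_eq_zero_iff F p 2).1 (by exact_mod_cast h)))
  obtain ⟨z, hz1, hzh, hzn⟩ : ∃ z : F, z ^ (q + 1) = 1 ∧ z ^ ((q + 1) / 2) = -1 ∧ (-z) ^ (n / 2) = 1 := by
    by_cases hq4 : q % 4 = 3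
    · set α := padicValNat 2 (q + 1)
      have hv : α + 1 ≤ padicValNat 2 n := by
        by_contra h; exact hcond ⟨by omega, hq4⟩
      have hdvd : 2 ^ α ∣ q + 1 := pow_padicValNat_dvd
      obtain ⟨u, hu⟩ := H97.exists_orderOf_field (F := F) (N := 2 ^ α)
        (by rw [H97.card_sub_one_factor hF]; exact dvd_mul_of_dvd_left hdvd _)
      obtain ⟨o, ho⟩ := hdvd
      have hoodd : Odd o := by
        rw [← Nat.not_even_iff_odd]
        rintro ⟨o', rfl⟩
        exact pow_succ_padicValNat_not_dvd (p := 2) (n := q + 1) (by omega)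
          ⟨o', by rw [show padicValNat 2 (q + 1) = α from rfl, pow_succ, ho]; ring⟩
      obtain ⟨β, hβ⟩ : ∃ β, α = β + 1 := ⟨α - 1, by
        have := one_le_padicValNat_of_dvd (p := 2) (show q + 1 ≠ 0 by omega) (by omega)
        omega⟩
      have hhalf : u ^ 2 ^ β = -1 := (sq_eq_one_iff.1 (by
        rw [← pow_mul, ← pow_succ, ← hβ, ← hu, pow_orderOf_eq_one] : (u ^ 2 ^ β) ^ 2 = 1)).resolve_left fun h => by
          have h3 := orderOf_dvd_of_pow_eq_one h
          rw [hu, Nat.pow_dvd_pow_iff_le_right (by norm_num)] at h3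
          omega
      refine ⟨-u, ?_, ?_, ?_⟩
      · rw [Even.neg_pow (Nat.even_iff.2 (by omega)), ho, pow_mul, ← hu, pow_orderOf_eq_one, one_pow]
      · rw [Even.neg_pow (Nat.even_iff.2 (by omega)), show (q + 1) / 2 = 2 ^ β * o by
          rw [ho, hβ, pow_succ, mul_comm (2 ^ β) 2, mul_assoc, Nat.mul_div_cancel_left _ two_pos],
          pow_mul, hhalf, hoodd.neg_one_pow]
      · rw [neg_neg]
        refine orderOf_dvd_iff_pow_eq_one.1 (hu ▸ ?_)
        obtain ⟨o'', ho''⟩ : 2 ^ (α + 1) ∣ n := (pow_dvd_pow 2 hv).trans pow_padicValNat_dvd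
        exact ⟨o'', by rw [ho'', pow_succ, mul_comm (2 ^ α) 2, mul_assoc, Nat.mul_div_cancel_left _ two_pos]⟩
    · refine ⟨-1, ?_, ?_, by simp⟩
      · rw [Even.neg_one_pow (Nat.even_iff.2 (by omega))]
      · rw [Odd.neg_one_pow (Nat.odd_iff.2 (by omega))]
  have hz0 : z ≠ 0 := fun h => by rw [h, zero_pow (by omega)] at hz1; exact zero_ne_one hz1
  set P : F[X] := X ^ 2 - C z with hP
  have hPm : P.Monic := monic_X_pow_sub_C z two_ne_zero
  have hdual : H67.dualPoly (H3.conjQ hF) P = P := by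
    rw [hP, H97.dualPoly_X_pow_sub_C _ two_pos hz0, H3.conjQ_apply]
    rw [inv_eq_of_mul_eq_one_right (show z ^ q * z = 1 by rw [← pow_succ, hz1])]
  obtain ⟨x, hxc, hxo⟩ := H97.exists_gu_charpoly (k := n) hF p (hPm.pow (n / 2))
    (by rw [natDegree_pow, natDegree_X_pow_sub_C]; obtain ⟨l, hl⟩ := hne; omega)
    (by rw [coeff_zero_eq_eval_zero]; simp [hP, hz0])
    (by rw [H67.dualPoly_pow, hdual])
  set M : Matrix (Fin n) (Fin n) F := ((x : GL (Fin n) F) : Matrix (Fin n) (Fin n) F)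
  have hMr : M ^ 2 = z • 1 := by
    obtain ⟨s, hs, hs0⟩ := H66.exists_squarefree_aeval_toLin' p
      (show M ^ orderOf x = 1 by
        rw [← Units.val_pow_eq_pow_val, ← SubgroupClass.coe_pow, pow_orderOf_eq_one]; rfl) hxo
    have hsM : aeval M s = 0 := by
      have h := hs0
      rw [H66.aeval_toLin'] at h
      exact Matrix.toLin'.injective (h.trans (map_zero _).symm)
    have h1 : minpoly F M ∣ P := by
      refine (Squarefree.squarefree_of_dvd (minpoly.dvd F M hsM) hs).isRadical (n / 2) _ ?_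
      exact minpoly.dvd F M (by rw [← hxc]; exact Matrix.aeval_self_charpoly M)
    obtain ⟨w, hw⟩ := h1
    have h3 : aeval M P = 0 := by rw [hw, map_mul, minpoly.aeval, zero_mul]
    simp only [hP, map_sub, map_pow, aeval_X, aeval_C, Algebra.algebraMap_eq_smul_one, sub_eq_zero] at h3
    exact h3
  refine ⟨x, z, ?_, ?_, fun u hu => ?_, fun W hWd hW hWx => ?_⟩
  · rw [H97.det_eq_charpoly_eval, hxc, eval_pow]
    simp only [hP, eval_sub, eval_pow, eval_X, eval_C, zero_pow two_ne_zero, zero_sub]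
    rw [hne.neg_one_pow, one_mul, hzn]
  · rw [SubgroupClass.coe_pow, Units.val_pow_eq_pow_val, hMr]
  · have hu1 : u ^ (q + 1) = 1 := H97.norm_of_scalar hF (show 1 ≤ n by omega) x hu
    have hu2 : u ^ 2 = z := by
      have h := hMr
      rw [show M = u • 1 from hu, _root_.smul_pow, one_pow] at h
      have := congrFun (congrFun h ⟨0, hn0⟩) ⟨0, hn0⟩
      simpa using this
    rw [← hu2, ← pow_mul, show 2 * ((q + 1) / 2) = q + 1 by omega, hu1] at hzh
    exact h2 (by linear_combination hzh)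
  · obtain ⟨g, y₁, y₂, hg⟩ := exists_block_of_nondeg hF x W hWd hW hWx
    have hx2 : ((x ^ 2 : Cfsg.GU n F q) : GL (Fin n) F).1 = z • 1 := by
      rw [SubgroupClass.coe_pow, Units.val_pow_eq_pow_val, hMr]
    rw [hg] at hx2
    have h1 := congrArg Matrix.det (block_pow_scalar g y₁ y₂ hx2).1
    rw [SubgroupClass.coe_pow, Units.val_pow_eq_pow_val, Matrix.det_pow, Matrix.det_smul, Matrix.det_one,
      mul_one, Fintype.card_fin] at h1
    have h4 := congrArg (fun w => w ^ ((q + 1) / 2)) h1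
    simp only [← pow_mul] at h4
    rw [show 2 * ((q + 1) / 2) = q + 1 by omega, H3.det_GU hF y₁, mul_comm, pow_mul, hzh,
      hm.neg_one_pow] at h4
    exact h2 (by linear_combination h4)

variable {r : ℕ} [Fact r.Prime]

/-- Unitary elements whose `r`-th power is a scalar without `r`-th root. -/
theorem exists_nondeg_nonpower (hF : Fintype.card F = q ^ 2) (hne : r ≠ p) (hr2 : r ≠ 2) (hm : 1 ≤ m)
    (hcond : r ∣ m ∨ padicValNat r (m + k) ≤ padicValNat r (q + 1)) (x : Cfsg.GU (m + k) F q)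
    (hdet : ((x : GL (Fin (m + k)) F) : Matrix (Fin (m + k)) (Fin (m + k)) F).det = 1) {z : F}
    (hz : ((x ^ r : Cfsg.GU (m + k) F q) : GL (Fin (m + k)) F).1 = z • 1) (hnp : ∀ u : F, u ^ r ≠ z) :
    ∃ W : Submodule F (Fin (m + k) → F), finrank F W = m ∧
      (∀ u ∈ W, u ≠ 0 → ∃ v ∈ W, Cfsg.hermForm (m + k) F q u v ≠ 0) ∧
      W.map (Matrix.toLin' ((x : GL (Fin (m + k)) F) : Matrix (Fin (m + k)) (Fin (m + k)) F)) ≤ W := by
  classical
  have hrp : r.Prime := Fact.out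
  have hn : 1 ≤ m + k := by omega
  set M : Matrix (Fin (m + k)) (Fin (m + k)) F := ((x : GL (Fin (m + k)) F) : Matrix (Fin (m + k)) (Fin (m + k)) F)
  have hz1 := H97.norm_of_scalar hF hn (x ^ r) hz
  have hMM : M ^ r = z • 1 := by rw [← hz, SubgroupClass.coe_pow, Units.val_pow_eq_pow_val]
  have hz0 : z ≠ 0 := fun h => by rw [h, zero_pow (by omega)] at hz1; exact zero_ne_one hz1
  set P : F[X] := X ^ r - C z with hP
  have hPi : Irreducible P := X_pow_sub_C_irreducible_of_prime hrp hnp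
  have hPm : P.Monic := monic_X_pow_sub_C z hrp.ne_zero
  have hannih : aeval M P = 0 := by
    simp [hP, hMM, Algebra.algebraMap_eq_smul_one]
  obtain ⟨a, ha⟩ := H97.exists_eq_prod_pow M.charpoly_monic (fun _ : Unit => P) (fun _ _ _ => rfl)
    (fun Q hQm hQ hQd => ⟨(), eq_of_monic_of_associated hQm hPm
      (hQ.associated_of_dvd hPi (H97.dvd_of_dvd_charpoly_of_aeval hannih hQ hQd))⟩)
  rw [Fintype.prod_unique] at ha
  set e := a default
  have hdeg : r * e = m + k := by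
    have h := M.charpoly_natDegree_eq_dim
    rw [ha, natDegree_pow, natDegree_X_pow_sub_C, Fintype.card_fin] at h
    rw [mul_comm]; exact h
  have hzk : z ^ e = 1 := by
    rw [← hdet, H97.det_eq_charpoly_eval, ha, eval_pow, eval_sub, eval_pow, eval_X, eval_C,
      zero_pow hrp.ne_zero, zero_sub, neg_pow z e, ← mul_assoc, ← pow_add, ← hdeg]
    obtain ⟨t, ht⟩ := hrp.odd_of_ne_two hr2
    rw [Even.neg_one_pow ⟨(t + 1) * e, by rw [ht]; ring⟩, one_mul]
  have hrm : r ∣ m := by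
    refine hcond.resolve_right fun hv => ?_
    set g := Nat.gcd e (q + 1)
    have hzg : z ^ g = 1 := pow_gcd_eq_one.2 ⟨hzk, hz1⟩
    obtain ⟨u, hu⟩ : g ∣ q + 1 := Nat.gcd_dvd_right _ _
    by_cases hru : r ∣ u
    · obtain ⟨u', rfl⟩ := hru
      obtain ⟨w, hw⟩ := H97.exists_pow_eq_of_pow_eq_one (r := r) (t := g * u' * (q - 1))
        (by rw [H97.card_sub_one_factor hF, hu]; ring) hz0 (by rw [mul_assoc, pow_mul, hzg, one_pow])
      exact hnp w hw
    · have h1 : r ^ padicValNat r (q + 1) ∣ g * u := hu ▸ pow_padicValNat_dvd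
      have h2 : r ^ padicValNat r (q + 1) ∣ g :=
        ((hrp.coprime_iff_not_dvd.2 hru).pow_left _).dvd_of_dvd_mul_right h1
      have h3 : r ^ (padicValNat r (q + 1) + 1) ∣ m + k := by
        rw [pow_succ, mul_comm, ← hdeg]
        exact mul_dvd_mul_left r (h2.trans (Nat.gcd_dvd_left _ _))
      have h4 := (padicValNat_dvd_iff_le (by omega : (m + k) ≠ 0)).1 h3
      omega
  obtain ⟨j, hj⟩ := hrm
  have hje : j ≤ e := Nat.le_of_mul_le_mul_left (by rw [hdeg, ← hj]; omega) hrp.pos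
  have hdual : H67.dualPoly (H3.conjQ hF) P = P := by
    rw [hP, H97.dualPoly_X_pow_sub_C _ hrp.pos hz0, H3.conjQ_apply]
    rw [inv_eq_of_mul_eq_one_right (show z ^ q * z = 1 by rw [← pow_succ, hz1])]
  have hnd : ∀ t : ℕ, (P ^ t).natDegree = r * t := fun t => by
    rw [natDegree_pow, natDegree_X_pow_sub_C, mul_comm]
  have hc0 : ∀ t : ℕ, (P ^ t).coeff 0 ≠ 0 := fun t => by
    rw [coeff_zero_eq_eval_zero]
    simp [hP, zero_pow hrp.ne_zero, hz0]
  have hxo : (orderOf x).Coprime p := by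
    refine Nat.Coprime.coprime_dvd_left (orderOf_dvd_of_pow_eq_one (x := x) (n := r * (q + 1)) ?_) ?_
    · refine Subtype.ext (Units.ext ?_)
      rw [SubgroupClass.coe_pow, Units.val_pow_eq_pow_val, pow_mul, hMM, _root_.smul_pow, one_pow, hz1, one_smul]
      rfl
    · refine Nat.Coprime.mul_left ((Nat.coprime_primes hrp Fact.out).2 hne) ?_
      obtain ⟨l, hl, -⟩ := H97.exists_conjQ_pow hF p
      refine ((Fact.out : p.Prime).coprime_iff_not_dvd.2 fun hd => ?_).symm
      have hl0 : l ≠ 0 := by rintro rfl; have := H3.two_le_q hF; rw [pow_zero] at hl; omega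
      exact (Fact.out : p.Prime).not_dvd_one ((Nat.dvd_add_right (hl ▸ dvd_pow_self p hl0)).1 hd)
  refine exists_nondeg_of_charpoly (b := k) hF p hxo (hPm.pow j) ((hnd j).trans hj.symm) (hc0 j)
    (by rw [H67.dualPoly_pow, hdual]) (hPm.pow (e - j)) ((hnd _).trans (by rw [Nat.mul_sub, hdeg, ← hj]; omega))
    (hc0 _) (by rw [H67.dualPoly_pow, hdual]) ?_
  rw [← pow_add, Nat.add_sub_cancel' hje]
  exact ha

end Cfsg.Agent.H98.UND
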