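import Cfsg.Agent.H98.UNondeg.Basic
import Cfsg.Agent.H97.Nilpotent
import Cfsg.Agent.H67.UnitaryClasses
import Cfsg.Agent.H66.Jordan

set_option autoImplicit false
set_option linter.style.haveILetI false

/-!
# Invariant nondegenerate subspaces of unipotent unitary elements
-/

namespace Cfsg.Agent.H98.UND

open Module
open scoped Matrix

variable {F : Type*} [Field F] [Fintype F] {q p m k n : ℕ} [Fact p.Prime] [CharP F p]

omit [Fintype F] in
/-- The rank drops by the kernel layer. -/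
theorem finrank_map_pow_succ {V : Type*} [AddCommGroup V] [Module F V] [FiniteDimensional F V] (N : End F V)
    (j : ℕ) : finrank F ↥((⊤ : Submodule F V).map (N ^ (j + 1))) + H97.kerLayer N ⊤ j =
      finrank F ↥((⊤ : Submodule F V).map (N ^ j)) := by
  set S := (⊤ : Submodule F V).map (N ^ j)
  have h := LinearMap.finrank_range_add_finrank_ker (N.domRestrict S)
  have hr : LinearMap.range (N.domRestrict S) = (⊤ : Submodule F V).map (N ^ (j + 1)) := by
    rw [LinearMap.range_domRestrict, pow_succ', Module.End.mul_eq_comp, Submodule.map_comp]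
  have hk : finrank F (LinearMap.ker (N.domRestrict S)) = H97.kerLayer N ⊤ j := by
    have he : Submodule.map S.subtype (LinearMap.ker (N.domRestrict S)) = S ⊓ LinearMap.ker N := by
      rw [LinearMap.ker_domRestrict, Submodule.map_comap_subtype]
    rw [← Submodule.finrank_map_subtype_eq, H97.kerLayer, he]
  rw [hr, hk] at h
  exact h

omit [Fintype F] in
/-- Unipotent matrices with the same block sizes are similar. -/
theorem isConj_of_blocks {A B : Matrix (Fin n) (Fin n) F} {d : ℕ} (hA : (Matrix.toLin' A - 1) ^ d = 0)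
    (hB : (Matrix.toLin' B - 1) ^ d = 0) {μ : Multiset ℕ} (hAb : H97.Blocks (Matrix.toLin' A - 1) ⊤ μ)
    (hBb : H97.Blocks (Matrix.toLin' B - 1) ⊤ μ) : IsConj A B := by
  have hto : ∀ C : Matrix (Fin n) (Fin n) F, ∀ j, Matrix.toLin' ((C - 1) ^ j) = (Matrix.toLin' C - 1) ^ j := by
    intro C j
    rw [Matrix.toLin'_pow, map_sub, Matrix.toLin'_one]
    rfl
  have hnil : ∀ C : Matrix (Fin n) (Fin n) F, (Matrix.toLin' C - 1) ^ d = 0 → IsNilpotent (C - 1) := fun C hC =>
    ⟨d, Matrix.toLin'.injective (by rw [hto, hC, map_zero])⟩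
  have hrank : ∀ j, finrank F ↥((⊤ : Submodule F (Fin n → F)).map ((Matrix.toLin' A - 1) ^ j)) =
      finrank F ↥((⊤ : Submodule F (Fin n → F)).map ((Matrix.toLin' B - 1) ^ j)) := by
    intro j
    induction j with
    | zero => rw [pow_zero, pow_zero]
    | succ j ih =>
      have h1 := finrank_map_pow_succ (Matrix.toLin' A - 1) j
      have h2 := finrank_map_pow_succ (Matrix.toLin' B - 1) j
      rw [hAb.kerLayer_eq] at h1
      rw [hBb.kerLayer_eq] at h2
      omega
  refine H66.isConj_of_kerDim_eq (hnil A hA) (hnil B hB) fun j => ?_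
  have h1 := H66.rank_add_kerDim A j
  have h2 := H66.rank_add_kerDim B j
  have h3 : ∀ C : Matrix (Fin n) (Fin n) F,
      ((C - 1) ^ j).rank = finrank F ↥((⊤ : Submodule F (Fin n → F)).map ((Matrix.toLin' C - 1) ^ j)) := fun C => by
    rw [← hto, Submodule.map_top, Matrix.toLin'_apply']
    rfl
  rw [h3] at h1 h2
  have := hrank j
  omega

omit [Fintype F] in
/-- Elements of order dividing `p` are unipotent. -/
theorem unipotent_of_pow_gu (hn : 0 < n) {f : Cfsg.GU n F q} (hf : f ^ p = 1) :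
    (Matrix.toLin' ((f : GL (Fin n) F) : Matrix (Fin n) (Fin n) F) - 1) ^ p = 0 := by
  haveI : Nonempty (Fin n) := ⟨⟨0, hn⟩⟩
  haveI : CharP (End F (Fin n → F)) p := charP_of_injective_algebraMap' F p
  rw [sub_pow_char_of_commute (p := p) (Commute.one_right _), ← Matrix.toLin'_pow, ← Units.val_pow_eq_pow_val,
    ← SubgroupClass.coe_pow, hf, one_pow]
  simp [Module.End.one_eq_id]

omit [Fintype F] [Fact p.Prime] [CharP F p] in
/-- The block sizes are invariant under conjugation. -/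
theorem blocks_conj (g y : Cfsg.GU n F q) {μ : Multiset ℕ}
    (h : H97.Blocks (Matrix.toLin' ((y : GL (Fin n) F) : Matrix (Fin n) (Fin n) F) - 1) ⊤ μ) :
    H97.Blocks (Matrix.toLin' (((g * y * g⁻¹ : Cfsg.GU n F q) : GL (Fin n) F) : Matrix (Fin n) (Fin n) F) - 1)
      ⊤ μ := by
  have hsurj : Function.Surjective (Matrix.toLin' ((g : GL (Fin n) F) : Matrix (Fin n) (Fin n) F)) := fun v =>
    ⟨((g⁻¹ : Cfsg.GU n F q).1 : Matrix (Fin n) (Fin n) F) *ᵥ v, by
      rw [Matrix.toLin'_apply]; simp⟩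
  have h1 := h.map (N' := Matrix.toLin' (((g * y * g⁻¹ : Cfsg.GU n F q) : GL (Fin n) F) :
      Matrix (Fin n) (Fin n) F) - 1) (Matrix.toLin' ((g : GL (Fin n) F) : Matrix (Fin n) (Fin n) F))
    (fun u v huv => Function.LeftInverse.injective (H3.inv_mulVec_GU g)
      (by simpa [Matrix.toLin'_apply] using huv))
    (fun v => by
      simp only [LinearMap.sub_apply, Module.End.one_apply, map_sub, Matrix.toLin'_apply]
      rw [H3.mul_mulVec_GU, H3.mul_mulVec_GU, H3.inv_mulVec_GU])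
  rwa [Submodule.map_top, LinearMap.range_eq_top.2 hsurj] at h1

omit [Fintype F] [Fact p.Prime] [CharP F p] in
/-- The block sizes of a block diagonal element. -/
theorem blocks_guBlock (y₁ : Cfsg.GU m F q) (y₂ : Cfsg.GU k F q) {ν ρ : Multiset ℕ}
    (h₁ : H97.Blocks (Matrix.toLin' ((y₁ : GL (Fin m) F) : Matrix (Fin m) (Fin m) F) - 1) ⊤ ν)
    (h₂ : H97.Blocks (Matrix.toLin' ((y₂ : GL (Fin k) F) : Matrix (Fin k) (Fin k) F) - 1) ⊤ ρ) :
    H97.Blocks (Matrix.toLin' (((H3.guBlock m k (y₁, y₂)) : GL (Fin (m + k)) F) :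
      Matrix (Fin (m + k)) (Fin (m + k)) F) - 1) ⊤ (ν + ρ) := by
  set N := Matrix.toLin' (((H3.guBlock m k (y₁, y₂)) : GL (Fin (m + k)) F) :
      Matrix (Fin (m + k)) (Fin (m + k)) F) - 1 with hN
  have hsub : ∀ (u u' : Fin m → F) (v v' : Fin k → F),
      Fin.append u v - Fin.append u' v' = Fin.append (u - u') (v - v') := fun u u' v v' =>
    funext (Fin.addCases (fun i => by simp) (fun i => by simp))
  have h1 := h₁.map (N' := N) (inlL F m k) inlL_injective (fun u => by
    simp only [hN, LinearMap.sub_apply, Module.End.one_apply, Matrix.toLin'_apply, inlL_apply]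
    rw [H3.guBlock_mulVec, hsub, Matrix.mulVec_zero, sub_zero])
  have h2 := h₂.map (N' := N) (inrL F m k) inrL_injective (fun v => by
    simp only [hN, LinearMap.sub_apply, Module.End.one_apply, Matrix.toLin'_apply, inrL_apply]
    rw [H3.guBlock_mulVec, hsub, Matrix.mulVec_zero, sub_zero])
  have hd : Disjoint (Submodule.map (inlL F m k) ⊤) (Submodule.map (inrL F m k) ⊤) := by
    rw [Submodule.disjoint_def]
    rintro x ⟨u, -, rfl⟩ ⟨v, -, hv⟩
    have hu : u = 0 := funext fun i => by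
      simpa [inlL_apply, inrL_apply] using (congrFun hv (Fin.castAdd k i)).symm
    rw [hu, map_zero]
  have htop : Submodule.map (inlL F m k) ⊤ ⊔ Submodule.map (inrL F m k) ⊤ = ⊤ :=
    eq_top_iff.2 fun x _ => Submodule.mem_sup.2 ⟨_, ⟨fun i => x (Fin.castAdd k i), trivial, rfl⟩,
      _, ⟨fun i => x (Fin.natAdd m i), trivial, rfl⟩,
      funext (Fin.addCases (fun i => by simp [inlL_apply, inrL_apply]) (fun i => by simp [inlL_apply, inrL_apply]))⟩
  have h3 := h1.sup h2 hd
  rwa [htop] at h3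

/-- Unitary elements of order dividing `p` exist with every block type. -/
theorem exists_gu_blocks (hF : Fintype.card F = q ^ 2) (hn : 0 < n) (μ : Multiset ℕ)
    (hμ : ∀ a ∈ μ, 0 < a ∧ a ≤ p) (hsum : μ.sum = n) :
    ∃ f : Cfsg.GU n F q, f ^ p = 1 ∧
      H97.Blocks (Matrix.toLin' ((f : GL (Fin n) F) : Matrix (Fin n) (Fin n) F) - 1) ⊤ μ := by
  classical
  subst hsum
  obtain ⟨N, hN⟩ := H97.exists_nilpotent_blocks F μ fun a ha => (hμ a ha).1
  have hNp : N ^ p = 0 := by
    refine LinearMap.ker_eq_top.1 (top_le_iff.1 ?_)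
    have key : ∀ {P : Submodule F (Fin μ.sum → F)} {ν : Multiset ℕ}, H97.Blocks N P ν → (∀ a ∈ ν, a ≤ p) →
        P ≤ LinearMap.ker (N ^ p) := by
      intro P ν h hν
      induction h with
      | bot => exact bot_le
      | @cons P ν v k hk htop hlast hd hB ih =>
        refine sup_le ?_ (ih fun a ha => hν a (Multiset.mem_cons_of_mem ha))
        rw [H97.blockSpan, Submodule.span_le]
        rintro _ ⟨i, rfl⟩
        show (N ^ p) ((N ^ (i : ℕ)) v) = 0
        have := hν k (Multiset.mem_cons_self k ν)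
        rw [← Module.End.mul_apply, ← pow_add, show p + (i : ℕ) = (p + i - k) + k by omega, pow_add,
          Module.End.mul_apply, htop, map_zero]
    exact key hN fun a ha => (hμ a ha).2
  haveI : Nonempty (Fin μ.sum) := ⟨⟨0, hn⟩⟩
  haveI : CharP (Matrix (Fin μ.sum) (Fin μ.sum) F) p := charP_of_injective_algebraMap' F p
  set M : Matrix (Fin μ.sum) (Fin μ.sum) F := 1 + LinearMap.toMatrix' N with hM
  have hMN : Matrix.toLin' M - 1 = N := by
    rw [hM, map_add, Matrix.toLin'_one, Matrix.toLin'_toMatrix']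
    exact add_sub_cancel_left _ _
  have hM1 : (M - 1) ^ p = 0 := Matrix.toLin'.injective (by
    rw [Matrix.toLin'_pow, map_sub, Matrix.toLin'_one, map_zero]
    exact (congrArg (· ^ p) hMN).trans hNp)
  have hMp : M ^ p = 1 := by
    rw [sub_pow_char_of_commute (p := p) (Commute.one_right _), one_pow, sub_eq_zero] at hM1
    exact hM1
  obtain ⟨A, hA⟩ := IsUnit.of_pow_eq_one hMp (Fact.out : p.Prime).ne_zero
  obtain ⟨B, hB⟩ := H67.exists_GU_isConj hF A (H67.isConj_contraMat_of_unipotent (H3.conjQ_conjQ hF) A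
    (m := p) (by rw [hA]; exact hM1))
  obtain ⟨c, hc⟩ := isConj_iff.1 hB
  refine ⟨B, Subtype.ext ?_, ?_⟩
  · rw [SubgroupClass.coe_pow, ← hc, conj_pow,
      show A ^ p = 1 from Units.ext (by rw [Units.val_pow_eq_pow_val, hA, hMp, Units.val_one])]
    simp
  · have hsurj : Function.Surjective (Matrix.toLin' (c : Matrix (Fin μ.sum) (Fin μ.sum) F)) := fun v =>
      ⟨((c⁻¹ : GL (Fin μ.sum) F) : Matrix (Fin μ.sum) (Fin μ.sum) F) *ᵥ v, by
        rw [Matrix.toLin'_apply, Matrix.mulVec_mulVec, Units.mul_inv, Matrix.one_mulVec]⟩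
    have h1 := hN.map (N' := Matrix.toLin' ((B : GL (Fin μ.sum) F) : Matrix (Fin μ.sum) (Fin μ.sum) F) - 1)
      (Matrix.toLin' (c : Matrix (Fin μ.sum) (Fin μ.sum) F))
      (fun u v huv => Matrix.mulVec_injective_of_isUnit c.isUnit (by simpa [Matrix.toLin'_apply] using huv))
      (fun v => by
        rw [← hMN, ← hc]
        simp only [LinearMap.sub_apply, Module.End.one_apply, map_sub, Matrix.toLin'_apply, Units.val_mul,
          Matrix.mulVec_mulVec, mul_assoc, Units.inv_mul, mul_one, hA])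
    rwa [Submodule.map_top, LinearMap.range_eq_top.2 hsurj] at h1

/-- Fixed nondegenerate subspaces of elements of order `p`. -/
theorem gu_nondeg_char_iff (hF : Fintype.card F = q ^ 2) (hm : 1 ≤ m) (hk : 1 ≤ k) :
    (∀ f : Cfsg.GU (m + k) F q, f ^ p = 1 → f ≠ 1 →
      ∃ W : Submodule F (Fin (m + k) → F), finrank F W = m ∧
        (∀ u ∈ W, u ≠ 0 → ∃ v ∈ W, Cfsg.hermForm (m + k) F q u v ≠ 0) ∧
        W.map (Matrix.toLin' ((f : GL (Fin (m + k)) F) : Matrix (Fin (m + k)) (Fin (m + k)) F)) ≤ W) ↔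
    ∀ μ : Multiset ℕ, (∀ a ∈ μ, 0 < a ∧ a ≤ p) → μ.sum = m + k → ∃ ν : Multiset ℕ, ν ≤ μ ∧ ν.sum = m := by
  classical
  constructor
  · intro H μ hμ hsum
    obtain ⟨f, hfp, hfb⟩ := exists_gu_blocks hF (by omega) μ hμ hsum
    by_cases hf1 : f = 1
    · subst hf1
      have hz : Matrix.toLin' (((1 : Cfsg.GU (m + k) F q) : GL (Fin (m + k)) F) :
          Matrix (Fin (m + k)) (Fin (m + k)) F) - 1 = 0 := by simp [Module.End.one_eq_id]
      have hall : ∀ a ∈ μ, a = 1 := fun a ha => by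
        have := hfb.le (m := 1) (by rw [pow_one, hz]) a ha
        have := (hμ a ha).1
        omega
      have hμ1 : μ = Multiset.replicate μ.card 1 := Multiset.eq_replicate_card.2 hall
      have hcard : μ.card = m + k := by rw [← hsum, congrArg Multiset.sum hμ1]; simp
      exact ⟨Multiset.replicate m 1, by rw [hμ1]; exact (Multiset.replicate_le_replicate 1).2 (by omega),
        by simp⟩
    obtain ⟨W, hWd, hW, hWf⟩ := H f hfp hf1
    obtain ⟨g, y₁, y₂, hg⟩ := exists_block_of_nondeg hF f W hWd hW hWf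
    subst hg
    have hz : ((((g * H3.guBlock m k (y₁, y₂) * g⁻¹) ^ p : Cfsg.GU (m + k) F q) : GL (Fin (m + k)) F)).1 =
        (1 : F) • 1 := by rw [hfp, one_smul]; rfl
    obtain ⟨h1, h2⟩ := block_pow_scalar g y₁ y₂ hz
    have hy₁ : y₁ ^ p = 1 := Subtype.ext (Units.ext (by rw [h1, one_smul]; rfl))
    have hy₂ : y₂ ^ p = 1 := Subtype.ext (Units.ext (by rw [h2, one_smul]; rfl))
    obtain ⟨ν, hν⟩ := H97.exists_blocks _ (unipotent_of_pow_gu (p := p) hm hy₁) ⊤ fun _ _ => Submodule.mem_top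
    obtain ⟨ρ, hρ⟩ := H97.exists_blocks _ (unipotent_of_pow_gu (p := p) hk hy₂) ⊤ fun _ _ => Submodule.mem_top
    have := hfb.unique (blocks_conj g _ (blocks_guBlock y₁ y₂ hν hρ))
    exact ⟨ν, this ▸ Multiset.le_add_right ν ρ, by rw [← hν.finrank_eq, finrank_top, finrank_fin_fun]⟩
  · intro H f hfp _
    have hfu := unipotent_of_pow_gu (p := p) (show 0 < m + k by omega) hfp
    obtain ⟨μ, hμ⟩ := H97.exists_blocks _ hfu ⊤ fun _ _ => Submodule.mem_top
    have hsum : μ.sum = m + k := by rw [← hμ.finrank_eq, finrank_top, finrank_fin_fun]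
    have hbd : ∀ a ∈ μ, 0 < a ∧ a ≤ p := fun a ha => ⟨hμ.pos a ha, hμ.le hfu a ha⟩
    obtain ⟨ν, hνμ, hνs⟩ := H μ hbd hsum
    obtain ⟨ρ, rfl⟩ := Multiset.le_iff_exists_add.1 hνμ
    have hρs : ρ.sum = k := by rw [Multiset.sum_add, hνs] at hsum; omega
    obtain ⟨y₁, hy₁, hb₁⟩ := exists_gu_blocks (F := F) (q := q) hF hm ν
      (fun a ha => hbd a (Multiset.mem_add.2 (Or.inl ha))) hνs
    obtain ⟨y₂, hy₂, hb₂⟩ := exists_gu_blocks (F := F) (q := q) hF hk ρ
      (fun a ha => hbd a (Multiset.mem_add.2 (Or.inr ha))) hρs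
    refine exists_nondeg_of_isConj hF f y₁ y₂ (H66.gu_isConj_of_isConj hF _ _ (H66.gl_isConj_iff.2
      (isConj_of_blocks (d := p) hfu ?_ hμ (blocks_guBlock y₁ y₂ hb₁ hb₂))))
    refine unipotent_of_pow_gu (p := p) (show 0 < m + k by omega) ?_
    rw [← map_pow, show ((y₁, y₂) : Cfsg.GU m F q × Cfsg.GU k F q) ^ p = 1 from Prod.ext hy₁ hy₂, map_one]

end Cfsg.Agent.H98.UND
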